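import Mathlib
import Cfsg.Agent.Lib.Helper5.SUAsch.Defs2
import Cfsg.Agent.Lib.Helper5.SUAsch.Bridge

set_option autoImplicit false

/-! # SU rows: basic unitary geometry (pieces ISO, T0, CENT, D1a) -/

namespace Cfsg.Agent.Lib.Helper5.SURows

open Cfsg Cfsg.Geo Matrix Cfsg.Agent.Lib.Helper5.SUAsch Cfsg.Agent.Lib.Helper5
  Cfsg.Agent.Lib.Helper13 Cfsg.Agent.Lib.Helper94 Cfsg.Agent.Lib.Helper94.U
open scoped Kronecker MatrixGroups

variable {F : Type*} [Field F] [Fintype F] {n q : ℕ}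

local notation "H" => Cfsg.hermForm n F q

/-- the linear functional `z ↦ H z x` -/
def hermL (n q : ℕ) (x : Fin n → F) : (Fin n → F) →ₗ[F] F where
  toFun z := Cfsg.hermForm n F q z x
  map_add' a b := hermForm_add_left a b x
  map_smul' c a := by rw [hermForm_smul_left]; rfl

omit [Fintype F] in
@[simp] lemma hermL_apply (x z : Fin n → F) : hermL n q x z = H z x := rfl

/-- a subspace containing all vectors not orthogonal to `u ≠ 0` is everything -/
theorem eq_top_of_nonperp (hF : Fintype.card F = q ^ 2) {u : Fin n → F} (hu : u ≠ 0)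
    (S : Submodule F (Fin n → F)) (h : ∀ z, H z u ≠ 0 → z ∈ S) : S = ⊤ := by
  obtain ⟨z0, hz0⟩ := exists_hermForm_ne_zero hF hu
  rw [eq_top_iff]
  intro z _
  by_cases hz : H z u = 0
  · have h1 : z + z0 ∈ S := h _ (by rw [hermForm_add_left, hz, zero_add]; exact hz0)
    have h2 := S.sub_mem h1 (h z0 hz0)
    simpa using h2
  · exact h z hz

/-- a subspace containing all isotropic vectors is everything -/
theorem eq_top_of_isotropic (hF : Fintype.card F = q ^ 2) (hn : 3 ≤ n)
    (S : Submodule F (Fin n → F)) (h : ∀ a, H a a = 0 → a ∈ S) : S = ⊤ := by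
  obtain ⟨u, hu0, hu⟩ := exists_isotropic_ne_zero (n := n) hF hn
  apply eq_top_of_nonperp hF hu0
  intro z hz
  obtain ⟨l, hl⟩ := exists_isotropic_add_smul hF hu hz
  have h1 := S.sub_mem (h _ hl) (S.smul_mem l (h u hu))
  simpa using h1

/-- ISO -/
theorem exists_isotropic_not_perp_vec (hF : Fintype.card F = q ^ 2) (hn : 3 ≤ n)
    {x : Fin n → F} (hx : x ≠ 0) :
    ∃ a : Fin n → F, hermForm n F q a a = 0 ∧ hermForm n F q x a ≠ 0 := by
  by_contra hcon
  push Not at hcon
  have h1 : LinearMap.ker (hermL n q x) = ⊤ := by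
    apply eq_top_of_isotropic hF hn
    intro a ha
    rw [LinearMap.mem_ker, hermL_apply]
    exact hermForm_eq_zero_comm hF (hcon a ha)
  obtain ⟨z, hz⟩ := exists_hermForm_ne_zero hF hx
  apply hz
  have : z ∈ LinearMap.ker (hermL n q x) := by rw [h1]; trivial
  simpa using this

/-- T0 -/
theorem exists_isTv (hF : Fintype.card F = q ^ 2) (hn : 3 ≤ n) :
    ∃ g ∈ SUg n F q, IsTv g := by
  obtain ⟨v, hv0, hv⟩ := exists_isotropic_ne_zero (n := n) hF hn
  obtain ⟨c, hc0, hc⟩ := exists_skew_q hF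
  obtain ⟨g, hg, hgx⟩ := exists_tv hF v c hv hc
  refine ⟨g, hg, c • hermL n q v, v, hv0, ?_, fun x => ?_⟩
  · intro h0
    obtain ⟨z, hz⟩ := exists_hermForm_ne_zero hF hv0
    have := congrArg (fun f : (Fin n → F) →ₗ[F] F => f z) h0
    simp only [LinearMap.smul_apply, hermL_apply, smul_eq_mul, LinearMap.zero_apply] at this
    exact (mul_ne_zero hc0 hz) this
  · rw [hgx]; rfl

/-- D1a -/
theorem su_not_le_stab (hF : Fintype.card F = q ^ 2) (hn : 3 ≤ n)
    (W : Submodule F (Fin n → F)) (h0 : W ≠ ⊥) (h1 : W ≠ ⊤) :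
    ¬ SUg n F q ≤ subspaceStabilizer W := by
  intro hle
  obtain ⟨c, hc0, hc⟩ := exists_skew_q hF
  -- key: `w ∈ W`, `a` isotropic, `H w a ≠ 0` imply `a ∈ W`
  have key : ∀ w ∈ W, ∀ a : Fin n → F, H a a = 0 → H w a ≠ 0 → a ∈ W := by
    intro w hw a ha hwa
    obtain ⟨g, hg, hgx⟩ := exists_tv hF a c ha hc
    have h2 : (g : Matrix (Fin n) (Fin n) F) *ᵥ w ∈ W := ((hle hg) w).1 hw
    rw [hgx] at h2
    have h3 := W.sub_mem h2 hw
    rw [add_sub_cancel_left] at h3
    have h4 := W.smul_mem (c * H w a)⁻¹ h3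
    rwa [smul_smul, inv_mul_cancel₀ (mul_ne_zero hc0 hwa), one_smul] at h4
  obtain ⟨w, hwW, hw0⟩ := Submodule.exists_mem_ne_zero_of_ne_bot h0
  obtain ⟨a, ha, hwa⟩ := exists_isotropic_not_perp_vec hF hn hw0
  have haW := key w hwW a ha hwa
  have ha0 : a ≠ 0 := by
    rintro rfl
    exact hwa (hermForm_zero_right hF w)
  apply h1
  apply eq_top_of_nonperp hF ha0
  intro z hz
  obtain ⟨l, hl⟩ := exists_isotropic_add_smul hF ha hz
  have h5 : H a (z + l • a) ≠ 0 := by
    rw [hermForm_add_right hF, hermForm_smul_right, ha, mul_zero, add_zero]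
    intro h6
    exact hz (hermForm_eq_zero_comm hF h6)
  have h6 := key a haW _ hl h5
  have h7 := W.sub_mem h6 (W.smul_mem l haW)
  simpa using h7

/-- an isotropic vector `a + μ b`, `μ ≠ 0`, for isotropic `a`, `b` with `H b a ≠ 0` -/
theorem exists_isotropic_add (hF : Fintype.card F = q ^ 2) {a b : Fin n → F} (ha : H a a = 0)
    (hb : H b b = 0) (hba : H b a ≠ 0) : ∃ μ : F, μ ≠ 0 ∧ H (a + μ • b) (a + μ • b) = 0 := by
  obtain ⟨e, he0, he⟩ := exists_skew_q hF
  refine ⟨e / H b a, div_ne_zero he0 hba, ?_⟩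
  have hab : H a b ≠ 0 := fun h => hba (hermForm_eq_zero_comm hF h)
  simp only [hermForm_add_left, hermForm_add_right hF, hermForm_smul_left, hermForm_smul_right, ha,
    hb, div_pow, hermForm_swap hF]
  field_simp
  linear_combination (H b a * H a b) * he

/-- CENT -/
theorem scalar_of_commute (hF : Fintype.card F = q ^ 2) (hn : 3 ≤ n)
    (x : GL (Fin n) F) (hx : ∀ g ∈ SUg n F q, x * g = g * x) : x ∈ scalars (Fin n) F := by
  obtain ⟨c, hc0, hc⟩ := exists_skew_q hF
  have step1 : ∀ a : Fin n → F, a ≠ 0 → H a a = 0 →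
      ∃ l : F, (x : Matrix (Fin n) (Fin n) F) *ᵥ a = l • a := by
    intro a ha0 ha
    obtain ⟨g, hg, hgx⟩ := exists_tv hF a c ha hc
    obtain ⟨y, hy⟩ := exists_hermForm_ne_zero hF ha0
    have h1 := congrArg (fun z : GL (Fin n) F => (z : Matrix (Fin n) (Fin n) F) *ᵥ y) (hx g hg)
    simp only [Units.val_mul, ← Matrix.mulVec_mulVec, hgx, Matrix.mulVec_add,
      Matrix.mulVec_smul] at h1
    have h2 := add_left_cancel h1
    refine ⟨(c * H y a)⁻¹ * (c * H ((x : Matrix (Fin n) (Fin n) F) *ᵥ y) a), ?_⟩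
    rw [mul_smul, ← h2, smul_smul, inv_mul_cancel₀ (mul_ne_zero hc0 hy), one_smul]
  have step2 : ∀ a b : Fin n → F, H a a = 0 → H b b = 0 → H b a ≠ 0 → ∀ l m : F,
      (x : Matrix (Fin n) (Fin n) F) *ᵥ a = l • a → (x : Matrix (Fin n) (Fin n) F) *ᵥ b = m • b →
      l = m := by
    intro a b ha hb hba l m hl hm
    have hab : H a b ≠ 0 := fun h => hba (hermForm_eq_zero_comm hF h)
    obtain ⟨μ, hμ0, hμ⟩ := exists_isotropic_add hF ha hb hba
    have hne : a + μ • b ≠ 0 := by
      intro h0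
      have := congrArg (fun z => H z a) h0
      simp only [hermForm_add_left, hermForm_smul_left, ha, hermForm_zero_left, zero_add] at this
      exact (mul_ne_zero hμ0 hba) this
    obtain ⟨k, hk⟩ := step1 _ hne hμ
    rw [Matrix.mulVec_add, Matrix.mulVec_smul, hl, hm] at hk
    have e1 := congrArg (fun z => H z b) hk
    have e2 := congrArg (fun z => H z a) hk
    simp only [hermForm_add_left, hermForm_smul_left, ha, hb, mul_zero, add_zero, zero_add] at e1 e2
    have f1 : l = k := mul_right_cancel₀ hab e1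
    have f2 : m = k := by
      have : μ * (m * H b a) = μ * (k * H b a) := by rw [e2]; ring
      exact mul_right_cancel₀ hba (mul_left_cancel₀ hμ0 this)
    rw [f1, f2]
  obtain ⟨u, hu0, hu⟩ := exists_isotropic_ne_zero (n := n) hF hn
  obtain ⟨l, hl⟩ := step1 u hu0 hu
  have hall : ∀ a : Fin n → F, H a a = 0 → (x : Matrix (Fin n) (Fin n) F) *ᵥ a = l • a := by
    intro a ha
    by_cases ha0 : a = 0
    · subst ha0; simp
    obtain ⟨m, hm⟩ := step1 a ha0 ha
    obtain ⟨y, hy, huy, hay⟩ := exists_isotropic_not_perp hF hu0 ha0 hu ha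
    have hy0 : y ≠ 0 := by
      rintro rfl
      exact huy (hermForm_zero_right hF u)
    obtain ⟨k, hk⟩ := step1 y hy0 hy
    have e1 : k = l := step2 y u hy hu huy k l hk hl
    have e2 : k = m := step2 y a hy ha hay k m hk hm
    rw [hm, ← e2, e1]
  have htop : LinearMap.ker (Matrix.toLin' ((x : Matrix (Fin n) (Fin n) F) - l • 1)) = ⊤ := by
    apply eq_top_of_isotropic hF hn
    intro a ha
    rw [LinearMap.mem_ker, Matrix.toLin'_apply, Matrix.sub_mulVec, hall a ha, Matrix.smul_mulVec,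
      Matrix.one_mulVec, sub_self]
  have hl0 : l ≠ 0 := by
    rintro rfl
    rw [zero_smul] at hl
    have h2 := congrArg (fun z => ((x⁻¹ : GL (Fin n) F) : Matrix (Fin n) (Fin n) F) *ᵥ z) hl
    simp only [Matrix.mulVec_mulVec, ← Units.val_mul, inv_mul_cancel, Units.val_one,
      Matrix.one_mulVec, Matrix.mulVec_zero] at h2
    exact hu0 h2
  rw [mem_scalars_iff]
  refine ⟨Units.mk0 l hl0, ?_⟩
  rw [LinearMap.ker_eq_top] at htop
  have h3 : (x : Matrix (Fin n) (Fin n) F) - l • 1 = 0 := by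
    apply Matrix.toLin'.injective
    rw [htop, map_zero]
  rw [Units.val_mk0]
  exact sub_eq_zero.1 h3

end Cfsg.Agent.Lib.Helper5.SURows
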