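import Mathlib
import Cfsg.Agent.Lib.Helper5.SURows.Geo

set_option autoImplicit false

/-! # SU rows: `SU_n(q)` normalises no absolutely irreducible `r`-group of similarities (D1f) -/

namespace Cfsg.Agent.Lib.Helper5.SURows

open Cfsg Cfsg.Geo Matrix Cfsg.Agent.Lib.Helper5.SUAsch Cfsg.Agent.Lib.Helper5
  Cfsg.Agent.Lib.Helper13 Cfsg.Agent.Lib.Helper94 Cfsg.Agent.Lib.Helper94.U
open scoped Kronecker MatrixGroups

variable {F : Type*} [Field F] [Fintype F] {n q : ℕ}

local notation "H" => Cfsg.hermForm n F q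

omit [Fintype F] in
/-- scalars are central -/
theorem scalar_comm {z : GL (Fin n) F} (hz : z ∈ scalars (Fin n) F) (g : GL (Fin n) F) :
    z * g = g * z := by
  rw [mem_scalars_iff] at hz
  obtain ⟨c, hc⟩ := hz
  apply Units.ext
  rw [Units.val_mul, Units.val_mul, hc]
  simp

omit [Fintype F] in
/-- similarities normalise `SUg` -/
theorem sim_conj_mem {x g : GL (Fin n) F} (hx : x ∈ similarityGroup (hermForm n F q))
    (hg : g ∈ SUg n F q) : x * g * x⁻¹ ∈ SUg n F q := by
  rw [mem_SUg_iff] at hg ⊢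
  obtain ⟨c, hc⟩ := hx
  constructor
  · intro u v
    have h1 := hc (((x⁻¹ : GL (Fin n) F) : Matrix (Fin n) (Fin n) F) *ᵥ u)
      (((x⁻¹ : GL (Fin n) F) : Matrix (Fin n) (Fin n) F) *ᵥ v)
    rw [Matrix.mulVec_mulVec, Matrix.mulVec_mulVec, ← Units.val_mul, mul_inv_cancel, Units.val_one,
      Matrix.one_mulVec, Matrix.one_mulVec] at h1
    rw [Units.val_mul, Units.val_mul, ← Matrix.mulVec_mulVec, ← Matrix.mulVec_mulVec,
      ← Matrix.mulVec_mulVec, ← Matrix.mulVec_mulVec, hc, hg.1, ← h1]
  · rw [Units.val_mul, Units.val_mul, Matrix.det_mul, Matrix.det_mul, hg.2, mul_one,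
      ← Matrix.det_mul, ← Units.val_mul, mul_inv_cancel, Units.val_one, Matrix.det_one]

/-- D1f -/
theorem su_not_le_normalizer (hF : Fintype.card F = q ^ 2) (hn : 3 ≤ n)
    (h32 : ¬ (n = 3 ∧ q = 2)) {r p : ℕ} (hp : CharP F p) (hr : r.Prime) (hrp : r ≠ p)
    (R : Subgroup (GL (Fin n) F)) (hR : IsPGroup r R)
    (hirr : ActsAbsolutelyIrreducibly (matrixSet R))
    (hsim : R ≤ similarityGroup (hermForm n F q)) :
    ¬ SUg n F q ≤ subgroupNormalizer R := by
  intro hle
  have hpp : p.Prime := by
    have := hp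
    exact (CharP.char_is_prime_or_zero F p).resolve_right (CharP.char_ne_zero_of_finite F p)
  have hnorm : ∀ g ∈ SUg n F q, ∀ x ∈ R, g * x * g⁻¹ ∈ R := by
    intro g hg x hx
    have := hle hg
    unfold subgroupNormalizer at this
    rw [Subgroup.mem_normalizer_iff] at this
    exact (this x).1 hx
  -- T = R ⊓ SUg is scalar
  have hT : R ⊓ SUg n F q ≤ scalars (Fin n) F := by
    rcases SUg_normal hF hn h32 (R ⊓ SUg n F q) inf_le_right (by
      intro g hg x hx
      exact ⟨hnorm g hg x hx.1, (SUg n F q).mul_mem ((SUg n F q).mul_mem hg hx.2)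
        ((SUg n F q).inv_mem hg)⟩) with h | h
    · exact h
    · exfalso
      obtain ⟨v, hv0, hv⟩ := exists_isotropic_ne_zero (n := n) hF hn
      obtain ⟨c, hc0, hc⟩ := exists_skew_q hF
      obtain ⟨g, hg, hgx⟩ := exists_tv hF v c hv hc
      have hgR : g ∈ R := by
        have : g ∈ R ⊓ SUg n F q := by rw [h]; exact hg
        exact this.1
      have hpow : ∀ k : ℕ, ∀ x, ((g ^ k : GL (Fin n) F) : Matrix (Fin n) (Fin n) F) *ᵥ x =
          x + ((k : F) * (c * H x v)) • v := by
        intro k
        induction k with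
        | zero => intro x; simp
        | succ k ih =>
          intro x
          rw [pow_succ, Units.val_mul, ← Matrix.mulVec_mulVec, hgx, ih, hermForm_add_left,
            hermForm_smul_left, hv, mul_zero, add_zero, add_assoc, ← add_smul]
          congr 2
          push_cast; ring
      have hgp : g ^ p = 1 := by
        apply Units.ext
        apply Matrix.toLin'.injective
        apply LinearMap.ext
        intro x
        rw [Matrix.toLin'_apply, hpow, CharP.cast_eq_zero F p]
        simp
      obtain ⟨k, hk⟩ := hR ⟨g, hgR⟩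
      have hk' : g ^ (r ^ k) = 1 := by
        have := congrArg (fun z : R => (z : GL (Fin n) F)) hk
        simpa using this
      have hcop : Nat.Coprime (r ^ k) p :=
        Nat.Coprime.pow_left k ((Nat.coprime_primes hr hpp).2 hrp)
      have hg1 : g = 1 := by
        have h1 := orderOf_dvd_of_pow_eq_one hk'
        have h2 := orderOf_dvd_of_pow_eq_one hgp
        have h3 := Nat.dvd_gcd h1 h2
        rw [hcop.gcd_eq_one, Nat.dvd_one] at h3
        exact orderOf_eq_one_iff.1 h3
      obtain ⟨y, hy⟩ := exists_hermForm_ne_zero hF hv0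
      have h4 := hgx y
      rw [hg1, Units.val_one, Matrix.one_mulVec] at h4
      have h5 : (c * H y v) • v = 0 := by
        have := h4.symm
        rwa [add_eq_left] at this
      rcases smul_eq_zero.1 h5 with h6 | h6
      · exact (mul_ne_zero hc0 hy) h6
      · exact hv0 h6
  -- every `x ∈ R` commutes with `SUg`
  have hsc : ⁅SUg n F q, R⁆ ≤ scalars (Fin n) F := by
    rw [Subgroup.commutator_le]
    intro g hg x hx
    rw [commutatorElement_def]
    apply hT
    refine ⟨R.mul_mem (hnorm g hg x hx) (R.inv_mem hx), ?_⟩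
    have h1 := sim_conj_mem (hsim hx) ((SUg n F q).inv_mem hg)
    have h2 : g * x * g⁻¹ * x⁻¹ = g * (x * g⁻¹ * x⁻¹) := by group
    rw [h2]
    exact (SUg n F q).mul_mem hg h1
  have hcen : scalars (Fin n) F ≤ Subgroup.centralizer (SUg n F q : Set (GL (Fin n) F)) := by
    intro z hz
    rw [Subgroup.mem_centralizer_iff]
    intro g _
    exact (scalar_comm hz g).symm
  have h1 : ⁅⁅SUg n F q, R⁆, SUg n F q⁆ = ⊥ := by
    rw [Subgroup.commutator_eq_bot_iff_le_centralizer]
    exact hsc.trans hcen
  have h2 : ⁅⁅R, SUg n F q⁆, SUg n F q⁆ = ⊥ := by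
    rw [Subgroup.commutator_comm R]; exact h1
  have h3 := Subgroup.commutator_commutator_eq_bot_of_rotate h1 h2
  rw [SUg_perfect hF hn h32, Subgroup.commutator_eq_bot_iff_le_centralizer] at h3
  have hcomm : ∀ x ∈ R, ∀ g ∈ SUg n F q, x * g = g * x := by
    intro x hx g hg
    have := h3 hg
    rw [Subgroup.mem_centralizer_iff] at this
    exact this x hx
  have hRsc : R ≤ scalars (Fin n) F := fun x hx => scalar_of_commute hF hn x (hcomm x hx)
  -- contradiction with irreducibility
  have hne : Nonempty (Fin n) := ⟨⟨0, by omega⟩⟩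
  let i0 : Fin n := ⟨0, by omega⟩
  let i1 : Fin n := ⟨1, by omega⟩
  rcases hirr.1 (Submodule.span F {(Pi.single i0 1 : Fin n → F)}) (by
    rintro s ⟨x, hx, rfl⟩
    obtain ⟨c, hc⟩ := (mem_scalars_iff x).1 (hRsc hx)
    rw [Submodule.map_le_iff_le_comap]
    intro v hv
    rw [Submodule.mem_comap, Matrix.toLin'_apply]
    change (x : Matrix (Fin n) (Fin n) F) *ᵥ v ∈ _
    rw [hc, Matrix.smul_mulVec, Matrix.one_mulVec]
    exact Submodule.smul_mem _ _ hv) with h | h
  · have : (Pi.single i0 1 : Fin n → F) ∈ (⊥ : Submodule F (Fin n → F)) := by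
      rw [← h]; exact Submodule.mem_span_singleton_self _
    rw [Submodule.mem_bot] at this
    have h2 := congrFun this i0
    simp at h2
  · have : (Pi.single i1 1 : Fin n → F) ∈ Submodule.span F {(Pi.single i0 1 : Fin n → F)} := by
      rw [h]; trivial
    rw [Submodule.mem_span_singleton] at this
    obtain ⟨a, ha⟩ := this
    have h2 := congrFun ha i1
    have h01 : i1 ≠ i0 := by simp [i0, i1, Fin.ext_iff]
    simp [h01] at h2

end Cfsg.Agent.Lib.Helper5.SURows
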