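import Mathlib
import Cfsg.Agent.Lib.Helper5.SUAsch.Defs2
import Cfsg.Agent.Lib.Helper5.SUAsch.Bridge
import Cfsg.Agent.Lib.Helper5.SURows.Geo
import Cfsg.Agent.Lib.Helper5.SURows.D1f
import Cfsg.Agent.Lib.Helper47.SURows.D1b
import Cfsg.Agent.Lib.Helper47.SURows.D1e
import Cfsg.Agent.Lib.Helper72.SURows.TVc
import Cfsg.Agent.Lib.Helper72.SURows.TVd
import Cfsg.Agent.Lib.Helper72.SURows.TVg
import Cfsg.Agent.Lib.Helper86.SURows.E1
import Cfsg.Agent.Lib.Helper86.SURows.E2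
import Cfsg.Agent.Lib.Helper55.Asch.DecCore
import Cfsg.Agent.Lib.Helper58.Asch.D6

set_option autoImplicit false

/-! # Unitary rows: from the class list to the refined conclusion for maximal subgroups -/

namespace Cfsg.Agent.Lib.Helper5.SURows

open Cfsg Cfsg.Geo Matrix Cfsg.Agent.Lib.Helper5.SUAsch Cfsg.Agent.Lib.Helper5
  Cfsg.Agent.Lib.Helper13
open scoped Kronecker MatrixGroups

variable {F : Type*} [Field F] [Fintype F] {n q : ℕ}

theorem subfield_ne_top (F₀ : Subfield F) {r : ℕ} (hr : 2 ≤ r)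
    (hc : Fintype.card F = Nat.card F₀ ^ r) : F₀ ≠ ⊤ := by
  rintro rfl
  have h1 : Nat.card (⊤ : Subfield F) = Fintype.card F := by
    rw [← Nat.card_eq_fintype_card]; exact Nat.card_congr (Subfield.topEquiv.toEquiv)
  rw [h1] at hc
  have h2 : 2 ≤ Fintype.card F := Fintype.one_lt_card
  have h3 : Fintype.card F ^ 1 < Fintype.card F ^ r := Nat.pow_lt_pow_right h2 (by omega)
  rw [pow_one, ← hc] at h3
  exact lt_irrefl _ h3

/-- REF -/
theorem refined (hF : Fintype.card F = q ^ 2) (hn : 4 ≤ n)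
    (H : Subgroup (GL (Fin n) F)) (hH : IsMaximalIn (SUg n F q) H)
    (hmain : UCls n q H ∨ InUnitaryResidualClass H) : URef n q H := by
  have hq : 2 ≤ q := two_le_of_card_sq hF
  have h32 : ¬ (n = 3 ∧ q = 2) := by omega
  have hn3 : 3 ≤ n := by omega
  have hHU : H ≤ GU n F q := hH.1.le.trans inf_le_left
  obtain ⟨g, hgS, hgT⟩ := exists_isTv (n := n) hF hn3
  have hcardn : Fintype.card (Fin n) = n := Fintype.card_fin n
  unfold URef
  rcases hmain with hU | hres
  swap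
  · iterate 11 right
    exact hres
  rcases hU with ⟨W, h0, h1, h⟩ | ⟨W, h0, h1, h2, h⟩ | ⟨t, k, D, hD, h⟩ | ⟨k, D, hk, hD, hs, h⟩ |
    ⟨F₀, r, P, hr, ho, hc, hf, h⟩ | ⟨F₀, P, ho, hc, hf, h⟩ | ⟨F₀, P, ζ, he, hc, h0, h1, hf, ha, h⟩ |
    ⟨r, R, p, e, k, h1, h2, h3, h4, h5, h6, h7, h⟩ | ⟨r, K, hr, ho, hK, ha, h⟩ |
    ⟨a, b, e, P, f₁, f₂, ha, hb, h1, h2, h3, h⟩ | ⟨k, t, e, P, f₁, hk, ht, hx, h1, h2, h⟩
  · left
    refine ⟨W, h0, h1, eq_inf_of_maximal hH h (su_not_le_stab hF hn3 W h0 ?_)⟩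
    rintro rfl
    have := h1 (Pi.single ⟨0, by omega⟩ 1) Submodule.mem_top (Pi.single ⟨0, by omega⟩ 1)
      Submodule.mem_top
    rw [hermForm_single_left] at this
    simp at this
  · right; left
    refine ⟨W, h0, h1, h2, eq_inf_of_maximal hH h (su_not_le_stab hF hn3 W h0 ?_)⟩
    rintro rfl
    rw [finrank_top, Module.finrank_fintype_fun_eq_card, hcardn] at h2
    omega
  · right; right; left
    by_cases hk2 : k = 2 ∧ q = 2
    · obtain ⟨rfl, rfl⟩ := hk2
      obtain ⟨t', D', hD', hle⟩ := Cfsg.Agent.Lib.Helper86.SURows.blocks_two_q2 hF D hD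
      refine ⟨t', 1, D', hD', ?_, by omega, eq_inf_of_maximal hH ((le_inf h hHU).trans hle)
        (Cfsg.Agent.Lib.Helper47.SURows.su_not_le_decomp hF hn3 h32 D' hD'.decomp)⟩
      rw [Cfsg.Agent.Lib.Helper55.Asch.card_of_decomp D' hD'.decomp, hcardn]
    · refine ⟨t, k, D, hD, ?_, by omega, eq_inf_of_maximal hH h
        (Cfsg.Agent.Lib.Helper47.SURows.su_not_le_decomp hF hn3 h32 D hD.decomp)⟩
      rw [Cfsg.Agent.Lib.Helper55.Asch.card_of_decomp D hD.decomp, hcardn]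
  · right; right; right; left
    exact ⟨k, D, hk, hD, hs, eq_inf_of_maximal hH h
        (Cfsg.Agent.Lib.Helper47.SURows.su_not_le_decomp hF hn3 h32 D hD)⟩
  · iterate 4 right
    left
    exact ⟨F₀, r, P, hr, ho, hc, hf, eq_inf_of_maximal hH h
      (Cfsg.Agent.Lib.Helper47.SURows.su_not_le_subfield hF hn F₀
        (subfield_ne_top F₀ hr.two_le hc) P)⟩
  · iterate 5 right
    left
    exact ⟨F₀, P, ho, hc, hf, eq_inf_of_maximal hH h
      (Cfsg.Agent.Lib.Helper47.SURows.su_not_le_subfield hF hn F₀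
        (subfield_ne_top F₀ le_rfl hc) P)⟩
  · iterate 6 right
    left
    exact ⟨F₀, P, ζ, he, hc, h0, h1, hf, ha, eq_inf_of_maximal hH h
      (Cfsg.Agent.Lib.Helper47.SURows.su_not_le_subfield hF hn F₀
        (subfield_ne_top F₀ le_rfl hc) P)⟩
  · iterate 7 right
    left
    exact ⟨r, R, p, e, k, h1, h2, h3, h4, h5, h6, h7, eq_inf_of_maximal hH h
      (su_not_le_normalizer hF hn3 h32 h5.2.1 h1.prime h4 R h1.pGroup h2 h3)⟩
  · iterate 8 right
    left
    refine ⟨r, K, hr, ho, ?_, hK, ha, eq_inf_of_maximal hH h (fun hle =>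
      Cfsg.Agent.Lib.Helper72.SURows.tv_not_mem_field (by rw [hcardn]; exact hn3) hr K hK g hgT
        (hle hgS))⟩
    have := Cfsg.Agent.Lib.Helper58.Asch.dvd_card_of_field K hK
    rwa [hcardn] at this
  · have hab : a * b = n := by
      have := Fintype.card_congr e
      simpa using this.symm
    by_cases ha2 : a = 2 ∧ q = 2
    · obtain ⟨rfl, rfl⟩ := ha2
      obtain ⟨D, hD, hle⟩ := Cfsg.Agent.Lib.Helper86.SURows.tensor_two_q2 hF (by omega) e P f₁ f₂
        h1 h2 h3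
      right; right; left
      exact ⟨2, b, D, hD, hab, by omega, eq_inf_of_maximal hH ((le_inf h hHU).trans hle)
        (Cfsg.Agent.Lib.Helper47.SURows.su_not_le_decomp hF hn3 h32 D hD.decomp)⟩
    · iterate 9 right
      left
      exact ⟨a, b, e, P, f₁, f₂, ha, hb, hab, by omega, h1, h2, h3, eq_inf_of_maximal hH h
        (fun hle => Cfsg.Agent.Lib.Helper72.SURows.tv_not_mem_tensor ha (by omega) e P g hgT
          (hle hgS))⟩
  · iterate 10 right
    left
    refine ⟨k, t, e, P, f₁, hk, ht, ?_, hx, h1, h2, h, ?_⟩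
    · have := Fintype.card_congr e
      simpa using this
    · rintro rfl
      exact eq_inf_of_maximal hH h (fun hle =>
        Cfsg.Agent.Lib.Helper72.SURows.tv_not_mem_wreath_two hk e P g hgT (hle hgS))

end Cfsg.Agent.Lib.Helper5.SURows
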